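import Cfsg.Agent.SuzukiCover.Group
import Cfsg.Agent.SchurMult.Cover

/-!
The Schur multiplier of the Suzuki group has order six: the sixfold cover is perfect and has trivial
multiplier.
-/

set_option autoImplicit false
set_option maxRecDepth 100000

namespace CfsgLib.SuzukiCover

open Cfsg
open scoped commutatorElement
open scoped Matrix
open Schur.PrimeCert (Cert evalW)

attribute [local irreducible] certTwo certThree certFive idxTwo idxThree idxFive elPk

theorem iterV_ok (M : List ℕ) : ∀ (e v : ℕ), okV v = true → ∀ w ∈ iterV M e v, okV w = true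
  | 0, _, _, w, hw => absurd hw List.not_mem_nil
  | e + 1, v, hv, w, hw => by
    rw [iterV, List.mem_cons] at hw
    rcases hw with rfl | hw
    · exact hv
    · exact iterV_ok M e _ (okV_vm M v) w hw

theorem iterV_spec {g : GL12} {M : List ℕ} (hg : Rep g M) : ∀ (e v : ℕ), okV v = true → ∀ d < e,
    ∃ w ∈ iterV M e v, toV w = toV v ᵥ* ((g ^ d : GL12) : Matrix (Fin 12) (Fin 12) (ZMod 7))
  | 0, _, _, d, hd => absurd hd (Nat.not_lt_zero d)
  | e + 1, v, _, 0, _ => ⟨v, by rw [iterV]; exact List.mem_cons_self, by simp⟩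
  | e + 1, v, hv, d + 1, hd => by
    obtain ⟨w, hw, he⟩ := iterV_spec hg e (vm M v) (okV_vm M v) d (by omega)
    refine ⟨w, by rw [iterV]; exact List.mem_cons_of_mem _ hw, ?_⟩
    rw [he, hg.vm hv, Matrix.vecMul_vecMul, ← Units.val_mul, ← pow_succ']

theorem iterV_tail {g : GL12} {M : List ℕ} (hg : Rep g M) (p v : ℕ) (hv : okV v = true) (d : ℕ)
    (hd : 1 ≤ d) (hdp : d < p) : ∃ w ∈ (iterV M p v).tail,
      toV w = toV v ᵥ* ((g ^ d : GL12) : Matrix (Fin 12) (Fin 12) (ZMod 7)) := by
  obtain ⟨p, rfl⟩ : ∃ q, p = q + 1 := ⟨p - 1, by omega⟩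
  obtain ⟨w, hw, he⟩ := iterV_spec hg p (vm M v) (okV_vm M v) (d - 1) (by omega)
  refine ⟨w, by rw [iterV, List.tail_cons]; exact hw, ?_⟩
  rw [he, hg.vm hv, Matrix.vecMul_vecMul, ← Units.val_mul, ← pow_succ',
    Nat.sub_add_cancel hd]

/-- The subgroup generated by the first `p`-elements has the expected order. -/
theorem card_closure_eq {c : Cert} (hp : c.p.Prime) (hsh : Schur.PrimeCert.shapeOK c = true)
    {els : List (List ℕ)} {s : ℕ → Gam} (hs : ∀ k, Rep (s k : GL12) (els.getD k onePk))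
    (hz : ∀ r < c.picks.length, evalW s (c.rules.getD r ([], [])).1 = evalW s (c.rules.getD r ([], [])).2)
    {v : ℕ} (hv : okV v = true) (hf : ∀ k < c.n, freeStep els c.p v k = true) :
    ∀ n ≤ c.n, Nat.card (Subgroup.closure (s '' {i | i < n})) = c.p ^ n ∧
      ∀ h ∈ Subgroup.closure (s '' {i | i < n}), ∀ u, okV u = true →
        ∃ w ∈ orb els c.p n u, okV w = true ∧
          toV w = toV u ᵥ* ((h : GL12) : Matrix (Fin 12) (Fin 12) (ZMod 7)) := by
  intro n hn
  induction n with
  | zero =>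
    have : Subgroup.closure (s '' {i | i < 0}) = ⊥ := by simp
    rw [this]
    refine ⟨by simp, fun h hh u hu => ⟨u, by rw [orb]; exact List.mem_singleton_self u, hu, ?_⟩⟩
    rw [Subgroup.mem_bot.1 hh]
    simp
  | succ n ih =>
    obtain ⟨hcard, horb⟩ := ih (by omega)
    set K := Subgroup.closure (s '' {i | i < n}) with hK
    set H := Subgroup.closure (s '' {i | i < n + 1}) with hH
    have hnot : ∀ d, 1 ≤ d → d < c.p → s n ^ d ∉ K := by
      intro d hd hdp hmem
      obtain ⟨w, hw, hwok, he⟩ := horb _ hmem v hv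
      obtain ⟨w', hw', he'⟩ := iterV_tail (hs n) c.p v hv d hd hdp
      have hall := hf n (by omega)
      simp only [freeStep, List.all_eq_true] at hall
      have hne := hall w' hw' w hw
      have heq : w' = w := toV_inj (iterV_ok _ _ _ hv w' (List.mem_of_mem_tail hw')) hwok
        (by rw [he', he, Subgroup.coe_pow])
      rw [heq, Nat.beq_refl] at hne
      exact absurd hne (by simp)
    let f : Fin c.p × K → H := fun q => ⟨s n ^ (q.1 : ℕ) * q.2, H.mul_mem
      (H.pow_mem (Subgroup.subset_closure ⟨n, Nat.lt_succ_self n, rfl⟩) _)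
      (Subgroup.closure_mono (Set.image_mono fun i hi => Nat.lt_succ_of_lt hi) q.2.2)⟩
    have hfi : Function.Injective f := by
      rintro ⟨a, x⟩ ⟨b, y⟩ h
      have h' : s n ^ (a : ℕ) * (x : Gam) = s n ^ (b : ℕ) * y := congrArg Subtype.val h
      wlog hab : (a : ℕ) ≤ b generalizing a b x y
      · exact (this b y a x h.symm h'.symm (by omega)).symm
      have e : s n ^ ((b : ℕ) - a) * (y : Gam) = x := by
        rw [← mul_right_inj (s n ^ (a : ℕ)), ← mul_assoc, ← pow_add, Nat.add_sub_cancel' hab, h']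
      have hab' : (a : ℕ) = b := by
        by_contra hne
        refine hnot ((b : ℕ) - a) (by omega) (by omega) ?_
        rw [← mul_inv_eq_of_eq_mul (G := Gam) e.symm]
        exact K.mul_mem x.2 (K.inv_mem y.2)
      rw [← hab', mul_right_inj] at h'
      exact Prod.ext (Fin.ext hab') (Subtype.ext h')
    have hle : Nat.card H ≤ c.p ^ (n + 1) := by
      rw [show Nat.card H = (H : Set Gam).ncard from Nat.card_coe_set_eq _]
      exact Schur.PrimeCert.ncard_closure_le hp.pos hsh s hz (n + 1) hn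
    have hge := Nat.card_le_card_of_injective f hfi
    rw [Nat.card_prod, Nat.card_fin, hcard, ← pow_succ'] at hge
    have hfb : Function.Bijective f := (Nat.bijective_iff_injective_and_card f).2 ⟨hfi, by
      rw [Nat.card_prod, Nat.card_fin, hcard, ← pow_succ']
      omega⟩
    refine ⟨le_antisymm hle hge, fun h hh u hu => ?_⟩
    obtain ⟨⟨a, k⟩, hak⟩ := hfb.2 ⟨h, hh⟩
    obtain ⟨w1, hw1, he1⟩ := iterV_spec (hs n) c.p u hu a a.2
    have hok1 := iterV_ok _ _ _ hu w1 hw1
    obtain ⟨w2, hw2, hok2, he2⟩ := horb k k.2 w1 hok1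
    refine ⟨w2, by rw [orb]; exact List.mem_flatMap.2 ⟨w1, hw1, hw2⟩, hok2, ?_⟩
    rw [he2, he1, Matrix.vecMul_vecMul, ← show s n ^ (a : ℕ) * (k : Gam) = h from
      congrArg Subtype.val hak, Subgroup.coe_mul, Subgroup.coe_pow, Units.val_mul]

theorem card_gam_eq (hker : Nat.card cover.ker = 6) : Nat.card Gam = 2690072985600 := by
  have e := Subgroup.card_eq_card_quotient_mul_card_subgroup cover.ker
  rw [Nat.card_congr (QuotientGroup.quotientKerEquivOfSurjective cover cover_surjective).toEquiv,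
    CosetEnum.Suz.card_suz, hker] at e
  rw [e]

theorem exists_scalar_commutator : ∀ t ∈ comPairs, ∃ g : Gam, g ∈ commutator Gam ∧
    Rep (g : GL12) (scalPk t.2.2) ∧ t.2.2 < 7 := by
  intro t ht
  have h := List.all_eq_true.1 check_com.1 t ht
  rw [Bool.and_eq_true] at h
  have hlt := Nat.le_of_ble_eq_true h.1
  let x := evalW elU t.1
  let y := evalW elU t.2.1
  refine ⟨⁅x, y⁆, Subgroup.commutator_mem_commutator (Subgroup.mem_top _) (Subgroup.mem_top _),
    ?_, hlt⟩
  obtain ⟨s, hs⟩ : ∃ s : GL12, Rep s (scalPk t.2.2) ∨ t.2.2 = 0 := by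
    by_cases h0 : t.2.2 = 0
    · exact ⟨1, Or.inr h0⟩
    haveI : Fact (Nat.Prime 7) := ⟨by norm_num⟩
    have hu : IsUnit (Matrix.scalar (Fin 12) ((t.2.2 : ℕ) : ZMod 7)) :=
      (isUnit_iff_ne_zero.2 fun hz => h0 (by
        rw [ZMod.natCast_eq_zero_iff] at hz
        exact Nat.eq_zero_of_dvd_of_lt hz hlt)).map _
    exact ⟨hu.unit, Or.inl ⟨hu.unit_spec.trans (toMat_scalPk _ hlt).1.symm, (toMat_scalPk _ hlt).2⟩⟩
  have hxy := rep_evalW rep_elU (t.1 ++ t.2.1)
  have hyx := rep_evalW rep_elU (t.2.1 ++ t.1)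
  rw [eqM_eq h.2, Schur.PrimeCert.evalW_append, Subgroup.coe_mul] at hxy
  rw [Schur.PrimeCert.evalW_append, Subgroup.coe_mul] at hyx
  rcases hs with hs | hs
  · have he : (x : GL12) * y = s * ((y : GL12) * x) := hxy.eq (hs.mul hyx)
    have : ((⁅x, y⁆ : Gam) : GL12) = s := by
      rw [commutatorElement_def]
      simp only [Subgroup.coe_mul, Subgroup.coe_inv]
      rw [he]
      group
    rwa [this]
  · exfalso
    have hm := check_com.2
    have : t.2.2 ∈ comPairs.map (fun t => t.2.2) := List.mem_map.2 ⟨t, ht, rfl⟩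
    rw [hm, hs] at this
    exact absurd this (by decide)

theorem ker_le : ∀ g : GL12, g ∈ Z → ∃ a : Gam, a ∈ commutator Gam ∧ (a : GL12) = g := by
  intro g hg
  rw [Z, Matrix.GeneralLinearGroup.center_eq_range_scalar] at hg
  obtain ⟨u, rfl⟩ := hg
  have hmem : ∀ l ∈ [6, 2], ∃ a : Gam, a ∈ commutator Gam ∧ Rep (a : GL12) (scalPk l) ∧ l < 7 := by
    intro l hl
    rw [← check_com.2] at hl
    obtain ⟨t, ht, rfl⟩ := List.mem_map.1 hl
    exact exists_scalar_commutator t ht
  obtain ⟨a, ha, hra, -⟩ := hmem 6 (by simp)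
  obtain ⟨b, hb, hrb, -⟩ := hmem 2 (by simp)
  obtain ⟨i, hi, j, hj, hu⟩ : ∃ i < 2, ∃ j < 3, (u : ZMod 7) = (6 : ZMod 7) ^ i * 2 ^ j := by
    revert u; decide +kernel
  refine ⟨a ^ i * b ^ j, (commutator Gam).mul_mem ((commutator Gam).pow_mem ha i)
    ((commutator Gam).pow_mem hb j), Units.ext ?_⟩
  rw [Subgroup.coe_mul, Subgroup.coe_pow, Subgroup.coe_pow, Units.val_mul, Units.val_pow_eq_pow_val,
    Units.val_pow_eq_pow_val, hra.1, hrb.1, (toMat_scalPk 6 (by norm_num)).1,
    (toMat_scalPk 2 (by norm_num)).1, ← map_pow, ← map_pow, ← map_mul]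
  exact congrArg (Matrix.scalar (Fin 12)) hu.symm

theorem stem_cover : Cfsg.IsStemExtension cover := by
  refine ⟨cover_surjective, fun g hg => ?_, fun g hg => ?_⟩
  · exact Subgroup.mem_center_iff.2 fun a => Subtype.ext
      (Subgroup.mem_center_iff.1 (mem_ker_cover.1 hg) a)
  · obtain ⟨a, ha, hag⟩ := ker_le _ (mem_ker_cover.1 hg)
    rwa [← (Subtype.ext hag : a = g)]

theorem ker_card : Nat.card cover.ker = 6 ∧ IsCyclic cover.ker := by
  let f : cover.ker →* Z :=
    (Gam.subtype.comp cover.ker.subtype).codRestrict Z fun g => mem_ker_cover.1 g.2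
  have hf : Function.Bijective f := by
    refine ⟨fun a b h => Subtype.ext (Subtype.ext (congrArg Subtype.val h : _)), fun z => ?_⟩
    obtain ⟨a, -, hag⟩ := ker_le _ z.2
    exact ⟨⟨a, mem_ker_cover.2 (hag ▸ z.2)⟩, Subtype.ext hag⟩
  let e := MulEquiv.ofBijective f hf
  refine ⟨(Nat.card_congr e.toEquiv).trans card_Z.1, ?_⟩
  have := card_Z.2
  exact isCyclic_of_surjective e.symm e.symm.surjective

theorem not_dvd_of_check {c : Cert} {idx : List ℕ} {v : ℕ} (h : rulesCheck c idx v = true)
    (hok : Schur.PrimeCert.ok c = true) (hfree : ∀ k < c.n, freeStep (elsOf idx) c.p v k = true)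
    (hp : c.p.Prime) {m : ℕ} (hm : 2690072985600 = c.p ^ c.n * m) (hcop : ¬ c.p ∣ m)
    {Γ : Type*} [Group Γ] [Finite Γ] {σ : Γ →* Gam} (hσ : Cfsg.IsStemExtension σ) :
    ¬ c.p ∣ Nat.card σ.ker := by
  simp only [rulesCheck, Bool.and_eq_true, List.all_eq_true, List.mem_range] at h
  obtain ⟨⟨hidx, hv⟩, hrel⟩ := h
  let s : ℕ → Gam := fun k => if k < idx.length then elU (idx.getD k 0) else 1
  have hs : ∀ k, Rep (s k : GL12) ((elsOf idx).getD k onePk) := by
    intro k
    rw [show elsOf idx = idx.map fun a => elPk.getD a onePk from rfl]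
    by_cases hk : k < idx.length
    · simp only [s, if_pos hk]
      rw [List.getD_eq_getElem (idx.map _) _ (by simpa using hk), List.getElem_map,
        List.getD_eq_getElem idx 0 hk]
      exact rep_elU _
    · simp only [s, if_neg hk]
      rw [List.getD_eq_default _ _ (by simpa using Nat.le_of_not_lt hk)]
      exact Rep.one
  have hr : ∀ r < c.rules.length, evalW s (c.rules.getD r ([], [])).1 =
      evalW s (c.rules.getD r ([], [])).2 := fun r hr => by
    have h1 := rep_evalW hs (c.rules.getD r ([], [])).1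
    rw [eqM_eq (hrel r hr)] at h1
    exact Subtype.ext (h1.eq (rep_evalW hs _))
  have hok' := hok
  simp only [Schur.PrimeCert.ok, Bool.and_eq_true, decide_eq_true_eq] at hok'
  have hcard := (card_closure_eq hp hok'.1.2 hs (fun r hr' => hr r (by omega)) hv hfree c.n le_rfl).1
  refine Schur.PrimeCert.not_dvd_card_ker_of_cert hσ hp hok _ hr hcard ?_
  have hi := (Subgroup.closure (s '' {i | i < c.n})).card_mul_index
  rw [hcard, card_gam_eq ker_card.1, hm] at hi
  rwa [Nat.eq_of_mul_eq_mul_left (pow_pos hp.pos _) hi]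

theorem cover_trivial : Cfsg.HasCyclicSchurMultiplier Gam 1 := by
  refine Schur.hasCyclicSchurMultiplier_one fun Γ _ _ σ hσ p hp => ?_
  have : Fact p.Prime := ⟨hp⟩
  by_cases h2 : p = 2
  · obtain ⟨-, e, en, -⟩ := two_base
    have hnd := not_dvd_of_check two_rules two_ok (by rw [e, en]; exact two_free)
      (by rw [e]; exact Nat.prime_two) (m := 164189025) (by rw [e, en]; norm_num)
      (by rw [e]; norm_num) hσ
    subst h2; rwa [e] at hnd
  by_cases h3 : p = 3
  · obtain ⟨hr, hok, e, en, hf⟩ := three_check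
    have hnd := not_dvd_of_check hr hok
      (by rw [e, en]; exact fun k hk => List.all_eq_true.1 hf k (List.mem_range.2 hk))
      (by rw [e]; exact Nat.prime_three) (m := 410009600) (by rw [e, en]; norm_num)
      (by rw [e]; norm_num) hσ
    subst h3; rwa [e] at hnd
  by_cases h5 : p = 5
  · obtain ⟨hr, hok, e, en, hf⟩ := five_check
    have hnd := not_dvd_of_check hr hok
      (by rw [e, en]; exact fun k hk => List.all_eq_true.1 hf k (List.mem_range.2 hk))
      (by rw [e]; exact Nat.prime_five) (m := 107602919424) (by rw [e, en]; norm_num)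
      (by rw [e]; norm_num) hσ
    subst h5; rwa [e] at hnd
  by_cases hd : p ∣ 2690072985600
  · obtain ⟨x, hx⟩ := exists_prime_orderOf_dvd_card' (G := Gam) p
      (by rw [card_gam_eq ker_card.1]; exact hd)
    refine Schur.not_dvd_card_ker_of_isCyclic hσ (Subgroup.zpowers x) fun hi => ?_
    have h := (Subgroup.zpowers x).card_mul_index
    rw [Nat.card_zpowers, hx, card_gam_eq ker_card.1] at h
    have hsq : p * p ∣ 2690072985600 := ⟨(Subgroup.zpowers x).index / p, by
      rw [mul_assoc, Nat.mul_div_cancel' hi, h]⟩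
    rw [show (2690072985600 : ℕ) = 2 ^ 14 * 3 ^ 8 * 5 ^ 2 * (7 * 11 * 13) by norm_num] at hsq
    have cop : ∀ {q e : ℕ}, q.Prime → p ≠ q → (p * p).Coprime (q ^ e) := fun hq hne =>
      (((Nat.coprime_primes hp hq).2 hne).mul_left ((Nat.coprime_primes hp hq).2 hne)).pow_right _
    have hs := ((((cop Nat.prime_two h2).mul_right (cop Nat.prime_three h3))).mul_right
      (cop Nat.prime_five h5)).dvd_of_dvd_mul_left hsq
    have hb : p < 32 := by
      have := Nat.le_of_dvd (by norm_num) hs
      nlinarith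
    interval_cases p <;> revert hs hp <;> norm_num
  · refine Schur.not_dvd_card_ker_of_isCyclic hσ ⊥ ?_
    rwa [Subgroup.index_bot, card_gam_eq ker_card.1]

theorem multiplier_suz : Cfsg.HasCyclicSchurMultiplier Cfsg.Spor.Suz 6 := by
  have := CosetEnum.Suz.finite_suz
  have := ker_card.2
  exact SchurMult.hasSchurMultiplier_of_trivial_cover stem_cover cover_trivial
    (mulEquivOfCyclicCardEq (ker_card.1.trans (by simp)))

end CfsgLib.SuzukiCover
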