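import Cfsg.Agent.SuzukiCover.Pack
import Cfsg.Agent.CosetEnum.Suz.Table

/-!
Kernel checks for the sixfold cover of the Suzuki group.
-/

set_option autoImplicit false
set_option maxRecDepth 100000
set_option Elab.async false

namespace CfsgLib.SuzukiCover

open Schur.PrimeCert (Cert)

/-- A word in packed matrices. -/
def evT (els : List (List ℕ)) : List ℕ → List ℕ
  | [] => onePk
  | k :: w => mul (els.getD k onePk) (evT els w)

theorem check_gens : Nat.beq genPk.length 7 = true ∧ genPk.all okM = true ∧ genInv.all okM = true ∧
    (List.range 7).all (fun x => eqM (mul (genPk.getD x onePk) (genInv.getD x onePk)) onePk &&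
      eqM (mul (genInv.getD x onePk) (genPk.getD x onePk)) onePk) = true := by decide +kernel

theorem check_slp : elPk.all okM = true ∧ Nat.beq elPk.length (7 + slp.length) = true ∧
    (List.range 7).all (fun x => eqM (elPk.getD x onePk) (genPk.getD x onePk)) = true ∧
    (List.range slp.length).all (fun j => (slp.getD j []).all (fun k => Nat.blt k (7 + j)) &&
      eqM (evT elPk (slp.getD j [])) (elPk.getD (7 + j) onePk)) = true := by decide +kernel

/-- A scalar matrix. -/
def isScal (M : List ℕ) : Bool :=
  eqM M (scalPk (el (M.getD 0 0) 0)) && Nat.blt (el (M.getD 0 0) 0) 7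

theorem check_rels : CosetEnum.Suz.Tab.relWords.all (fun w => isScal (evT genPk w)) = true ∧
    CosetEnum.Suz.Tab.relWords.all (fun w => w.all fun x => Nat.blt x 7) = true := by decide +kernel

theorem check_com : comPairs.all (fun t => Nat.blt t.2.2 7 && eqM (evT elPk (t.1 ++ t.2.1))
    (mul (scalPk t.2.2) (evT elPk (t.2.1 ++ t.1)))) = true ∧
    comPairs.map (fun t => t.2.2) = [6, 2] := by decide +kernel

/-- The first `e` images of a vector under the powers of a matrix. -/
def iterV (M : List ℕ) : ℕ → ℕ → List ℕ
  | 0, _ => []
  | e + 1, v => v :: iterV M e (vm M v)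

/-- The images of a vector under the normal forms of the first generators. -/
def orb (els : List (List ℕ)) (p : ℕ) : ℕ → ℕ → List ℕ
  | 0, v => [v]
  | n + 1, v => (iterV (els.getD n onePk) p v).flatMap (orb els p n)

/-- The elements of a certificate. -/
def elsOf (idx : List ℕ) : List (List ℕ) := idx.map (elPk.getD · onePk)

/-- The vector is moved by the proper powers of generator `k` out of the orbit of the earlier ones. -/
def freeStep (els : List (List ℕ)) (p v k : ℕ) : Bool :=
  (iterV (els.getD k onePk) p v).tail.all fun w => (orb els p k v).all fun u => !Nat.beq w u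

/-- The relations of a certificate hold and the elements are listed ones. -/
def rulesCheck (c : Cert) (idx : List ℕ) (v : ℕ) : Bool :=
  idx.all (fun k => Nat.blt k elPk.length) && okV v &&
    (List.range c.rules.length).all (fun r =>
      eqM (evT (elsOf idx) (c.rules.getD r ([], [])).1) (evT (elsOf idx) (c.rules.getD r ([], [])).2))

/-- The part of a certificate besides the new tails. -/
def baseOK (c : Cert) : Bool :=
  decide (c.picks.length ≤ c.rules.length) && Schur.PrimeCert.shapeOK c

theorem two_rules : rulesCheck certTwo idxTwo vecTwo = true := by decide +kernel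

theorem two_base : baseOK certTwo = true ∧ certTwo.p = 2 ∧ certTwo.n = 14 ∧
    certTwo.picks.length = 105 := by decide +kernel

theorem three_check : rulesCheck certThree idxThree vecThree = true ∧ Schur.PrimeCert.ok certThree = true ∧
    certThree.p = 3 ∧ certThree.n = 8 ∧
    (List.range 8).all (freeStep (elsOf idxThree) 3 vecThree) = true := by decide +kernel

theorem five_check : rulesCheck certFive idxFive vecFive = true ∧ Schur.PrimeCert.ok certFive = true ∧
    certFive.p = 5 ∧ certFive.n = 2 ∧
    (List.range 2).all (freeStep (elsOf idxFive) 5 vecFive) = true := by decide +kernel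

end CfsgLib.SuzukiCover
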