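import Cfsg.Agent.SuzukiCover.Checks

/-!
A vector moved freely by the Sylow two-subgroup.
-/

set_option autoImplicit false
set_option maxRecDepth 100000
set_option Elab.async false

namespace CfsgLib.SuzukiCover

theorem two_free0 : (List.range' 0 12).all (freeStep (elsOf idxTwo) 2 vecTwo) = true := by
  decide +kernel

theorem two_free12 : (List.range' 12 1).all (freeStep (elsOf idxTwo) 2 vecTwo) = true := by
  decide +kernel

theorem two_free13 : (List.range' 13 1).all (freeStep (elsOf idxTwo) 2 vecTwo) = true := by
  decide +kernel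

theorem two_free : ∀ k < 14, freeStep (elsOf idxTwo) 2 vecTwo k = true := by
  intro k hk
  have h : ∀ a b : ℕ, (List.range' a b).all (freeStep (elsOf idxTwo) 2 vecTwo) = true → a ≤ k →
      k < a + b → freeStep (elsOf idxTwo) 2 vecTwo k = true := fun a b h h1 h2 =>
    List.all_eq_true.1 h k (List.mem_range'_1.2 ⟨h1, h2⟩)
  rcases Nat.lt_or_ge k 12 with h1 | h1
  · exact h _ _ two_free0 (Nat.zero_le k) h1
  rcases Nat.lt_or_ge k 13 with h2 | h2
  · exact h _ _ two_free12 h1 h2
  exact h _ _ two_free13 h2 hk

end CfsgLib.SuzukiCover
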