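import Cfsg.Agent.SuzukiCover.Checks

/-!
The new tails of the certificate at two.
-/

set_option autoImplicit false
set_option maxRecDepth 100000
set_option Elab.async false

namespace CfsgLib.SuzukiCover

theorem two_picks0 : (List.range' 0 18).all (Schur.PrimeCert.pickOK certTwo) = true := by
  decide +kernel

theorem two_picks18 : (List.range' 18 18).all (Schur.PrimeCert.pickOK certTwo) = true := by
  decide +kernel

theorem two_picks36 : (List.range' 36 18).all (Schur.PrimeCert.pickOK certTwo) = true := by
  decide +kernel

theorem two_picks54 : (List.range' 54 18).all (Schur.PrimeCert.pickOK certTwo) = true := by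
  decide +kernel

theorem two_picks72 : (List.range' 72 18).all (Schur.PrimeCert.pickOK certTwo) = true := by
  decide +kernel

theorem two_picks90 : (List.range' 90 15).all (Schur.PrimeCert.pickOK certTwo) = true := by
  decide +kernel

theorem two_ok : Schur.PrimeCert.ok certTwo = true := by
  obtain ⟨hb, -, -, hl⟩ := two_base
  simp only [baseOK, Bool.and_eq_true] at hb
  rw [Schur.PrimeCert.ok, hb.1, hb.2, Bool.true_and, Bool.true_and, List.all_eq_true]
  intro r hr
  rw [List.mem_range, hl] at hr
  have h : ∀ a b : ℕ, (List.range' a b).all (Schur.PrimeCert.pickOK certTwo) = true → a ≤ r →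
      r < a + b → Schur.PrimeCert.pickOK certTwo r = true := fun a b h h1 h2 =>
    List.all_eq_true.1 h r (List.mem_range'_1.2 ⟨h1, h2⟩)
  rcases Nat.lt_or_ge r 18 with h1 | h1
  · exact h _ _ two_picks0 (Nat.zero_le r) h1
  rcases Nat.lt_or_ge r 36 with h2 | h2
  · exact h _ _ two_picks18 h1 h2
  rcases Nat.lt_or_ge r 54 with h3 | h3
  · exact h _ _ two_picks36 h2 h3
  rcases Nat.lt_or_ge r 72 with h4 | h4
  · exact h _ _ two_picks54 h3 h4
  rcases Nat.lt_or_ge r 90 with h5 | h5
  · exact h _ _ two_picks72 h4 h5
  exact h _ _ two_picks90 h5 hr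

end CfsgLib.SuzukiCover
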