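import Cfsg.Agent.SuzukiCover.ChecksTwoTails
import Cfsg.Agent.SuzukiCover.ChecksTwoFree
import Cfsg.Agent.CosetEnum.Suz.Simple
import Cfsg.Agent.Eq.Def_KGroupFacts

/-!
The sixfold cover of the Suzuki group generated by seven matrices.
-/

set_option autoImplicit false
set_option maxRecDepth 100000

namespace CfsgLib.SuzukiCover

open CosetEnum (gword gword_cons gword_nil)
open scoped commutatorElement

attribute [local irreducible] genPk genInv elPk slp comPairs CosetEnum.Suz.Tab.relWords

theorem okM_getD {L : List (List ℕ)} (h : L.all okM = true) (x : ℕ) : okM (L.getD x onePk) = true := by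
  rcases Nat.lt_or_ge x L.length with hx | hx
  · rw [List.getD_eq_getElem _ _ hx]; exact List.all_eq_true.1 h _ (List.getElem_mem _)
  · rw [List.getD_eq_default _ _ hx]; exact (Rep.one).2

theorem toMat_onePk : toMat onePk = 1 := Rep.one.1.symm

theorem gen_mul_inv (x : ℕ) : toMat (genPk.getD x onePk) * toMat (genInv.getD x onePk) = 1 ∨ 7 ≤ x := by
  obtain ⟨-, hg, hi, h⟩ := check_gens
  rcases Nat.lt_or_ge x 7 with hx | hx
  · have := List.all_eq_true.1 h x (List.mem_range.2 hx)
    rw [Bool.and_eq_true] at this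
    exact Or.inl (by rw [← (toMat_mul (okM_getD hg x) (okM_getD hi x)).1, eqM_eq this.1, toMat_onePk])
  · exact Or.inr hx

/-- A generator. -/
noncomputable def genU (x : ℕ) : GL12 :=
  if h : toMat (genPk.getD x onePk) * toMat (genInv.getD x onePk) = 1 then
    ⟨_, _, h, mul_eq_one_comm.1 h⟩ else 1

theorem rep_genU {x : ℕ} (hx : x < 7) : Rep (genU x) (genPk.getD x onePk) := by
  have h := (gen_mul_inv x).resolve_right (by omega)
  rw [genU, dif_pos h]
  exact ⟨rfl, okM_getD check_gens.2.1 x⟩

/-- The cover. -/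
noncomputable def Gam : Subgroup GL12 := Subgroup.closure {g | ∃ x < 7, genU x = g}

attribute [local irreducible] genU

theorem genU_mem {x : ℕ} (hx : x < 7) : genU x ∈ Gam := Subgroup.subset_closure ⟨x, hx, rfl⟩

theorem rep_of_slp (els sl : List (List ℕ)) (hlen : els.length = 7 + sl.length)
    (hbase : ∀ x < 7, els.getD x onePk = genPk.getD x onePk)
    (hstep : ∀ j < sl.length, (∀ i ∈ sl.getD j [], i < 7 + j) ∧
      evT els (sl.getD j []) = els.getD (7 + j) onePk) :
    ∀ k < els.length, ∃ g : Gam, Rep (g : GL12) (els.getD k onePk) := by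
  intro k
  induction k using Nat.strong_induction_on with
  | _ k ih =>
    intro hk
    rcases Nat.lt_or_ge k 7 with h7 | h7
    · refine ⟨⟨genU k, genU_mem h7⟩, ?_⟩
      rw [hbase k h7]
      exact rep_genU h7
    · obtain ⟨hw, he⟩ := hstep (k - 7) (by omega)
      rw [Nat.add_sub_cancel' h7] at hw he
      have hw' : ∀ w : List ℕ, (∀ i ∈ w, i < k) → ∃ g : Gam, Rep (g : GL12) (evT els w) := by
        intro w hw
        induction w with
        | nil => exact ⟨1, Rep.one⟩
        | cons i w ihw =>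
          have hi := hw i List.mem_cons_self
          obtain ⟨a, ha⟩ := ih i hi (lt_trans hi hk)
          obtain ⟨b, hb⟩ := ihw fun j hj => hw j (List.mem_cons_of_mem _ hj)
          exact ⟨a * b, ha.mul hb⟩
      obtain ⟨g, hgr⟩ := hw' _ hw
      exact ⟨g, he ▸ hgr⟩

theorem rep_elPk : ∀ k < elPk.length, ∃ g : Gam, Rep (g : GL12) (elPk.getD k onePk) := by
  obtain ⟨-, hlen, hg, hs⟩ := check_slp
  refine rep_of_slp elPk slp (Nat.eq_of_beq_eq_true hlen)
    (fun x hx => eqM_eq (List.all_eq_true.1 hg x (List.mem_range.2 hx))) fun j hj => ?_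
  have h := List.all_eq_true.1 hs j (List.mem_range.2 hj)
  rw [Bool.and_eq_true] at h
  exact ⟨fun i hi => Nat.le_of_ble_eq_true (List.all_eq_true.1 h.1 i hi), eqM_eq h.2⟩

/-- A chosen element. -/
noncomputable def elU (k : ℕ) : Gam :=
  if h : k < elPk.length then (rep_elPk k h).choose else 1

theorem rep_elU (k : ℕ) : Rep (elU k : GL12) (elPk.getD k onePk) := by
  rw [elU]
  split
  · next h => exact (rep_elPk k h).choose_spec
  · next h => rw [List.getD_eq_default _ _ (by omega)]; exact Rep.one

theorem rep_evalW {s : ℕ → Gam} {els : List (List ℕ)} (hs : ∀ k, Rep (s k : GL12) (els.getD k onePk))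
    (w : List ℕ) : Rep ((Schur.PrimeCert.evalW s w : Gam) : GL12) (evT els w) := by
  induction w with
  | nil => exact Rep.one
  | cons k w ih =>
    rw [Schur.PrimeCert.evalW_cons, Subgroup.coe_mul]
    exact (hs k).mul ih

/-- The scalar matrices. -/
abbrev Z : Subgroup GL12 := Subgroup.center GL12

theorem mem_Z_of_rep {g : GL12} {x : ℕ} (hx : x < 7) (h : Rep g (scalPk x)) : g ∈ Z := by
  refine Subgroup.mem_center_iff.2 fun a => Units.ext ?_
  rw [Units.val_mul, Units.val_mul, h.1, (toMat_scalPk x hx).1]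
  exact (Matrix.scalar_commute _ (fun r => Commute.all _ r) _).symm.eq

theorem card_Z : Nat.card Z = 6 ∧ IsCyclic Z := by
  let sc : (ZMod 7)ˣ →* GL12 := Units.map (Matrix.scalar (Fin 12)).toMonoidHom
  have hZ : Z = sc.range := by
    rw [Z, Matrix.GeneralLinearGroup.center_eq_range_scalar]
    rfl
  have hinj : Function.Injective sc := fun a b h => Units.ext
    (by simpa [sc, Matrix.scalar_apply] using
      congrArg (fun g : GL12 => (g : Matrix (Fin 12) (Fin 12) (ZMod 7)) 0 0) h)
  haveI : Fact (Nat.Prime 7) := ⟨by norm_num⟩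
  let e := MonoidHom.ofInjective hinj
  refine ⟨?_, ?_⟩
  · rw [hZ, ← Nat.card_congr e.toEquiv, Nat.card_units, Nat.card_zmod]
  · rw [hZ]
    exact isCyclic_of_surjective e e.surjective

/-- The value of a word of generators. -/
noncomputable def genQ (x : ℕ) : GL12 ⧸ Z := QuotientGroup.mk (CosetEnum.letterVal 7 genU x)

theorem rep_gword : ∀ {w : List ℕ}, w.all (fun x => Nat.blt x 7) = true →
    Rep (gword (CosetEnum.letterVal 7 genU) w) (evT genPk w)
  | [], _ => by rw [gword_nil]; exact Rep.one
  | x :: w, h => by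
    rw [List.all_cons, Bool.and_eq_true] at h
    have hx := Nat.le_of_ble_eq_true h.1
    rw [gword_cons, CosetEnum.letterVal_lt _ hx]
    exact (rep_genU hx).mul (rep_gword h.2)

theorem gword_genQ : ∀ w ∈ CosetEnum.Suz.Tab.relWords, gword genQ w = 1 := by
  intro w hw
  obtain ⟨h1, h2⟩ := check_rels
  have h := rep_gword (List.all_eq_true.1 h2 w hw)
  have hs := List.all_eq_true.1 h1 w hw
  simp only [isScal, Bool.and_eq_true] at hs
  rw [eqM_eq hs.1] at h
  rw [show gword genQ w = QuotientGroup.mk' Z (gword (CosetEnum.letterVal 7 genU) w) from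
    (CosetEnum.gword_map (QuotientGroup.mk' Z) _ w).symm]
  exact (QuotientGroup.eq_one_iff _).2 (mem_Z_of_rep (Nat.le_of_ble_eq_true hs.2) h)

theorem genQ_inv (x : ℕ) : genQ x = (genQ x)⁻¹ := by
  rcases Nat.lt_or_ge x 7 with hx | hx
  · refine eq_inv_of_mul_eq_one_left ?_
    have h := gword_genQ [x, x] (by interval_cases x <;> decide +kernel)
    rwa [gword_cons, gword_cons, gword_nil, mul_one] at h
  · rw [genQ, CosetEnum.letterVal, if_neg (by omega), QuotientGroup.mk_one, inv_one]

/-- The projective representation of the presented group. -/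
noncomputable def proj : Cfsg.Spor.Suz →* GL12 ⧸ Z :=
  PresentedGroup.toGroup (f := fun a => genQ (CosetEnum.Suz.enc a)) fun r hr => by
    rw [CosetEnum.Suz.rels_eq] at hr
    rw [CosetEnum.map_eq_gword CosetEnum.Suz.enc (fun y => y)
      (FreeGroup.lift fun a => genQ (CosetEnum.Suz.enc a)) genQ
      (fun a => FreeGroup.lift_apply_of)
      (fun a => by rw [FreeGroup.lift_apply_of]; exact (genQ_inv _).symm) r]
    exact CosetEnum.gword_of_wordsFrom genQ (fun y => y) genQ_inv
      CosetEnum.Suz.relWords_to_list gword_genQ _ (List.mem_map.2 ⟨r, hr, rfl⟩)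

theorem proj_gen {x : ℕ} (hx : x < 7) : proj (CosetEnum.Suz.gen x) = QuotientGroup.mk (genU x) := by
  rw [CosetEnum.Suz.gen, proj, PresentedGroup.toGroup.of]
  rw [show CosetEnum.Suz.enc (CosetEnum.Suz.dec x) = x by interval_cases x <;> rfl, genQ,
    CosetEnum.letterVal_lt _ hx]

theorem genU_zero_notMem : genU 0 ∉ Z := by
  intro h
  rw [Z, Matrix.GeneralLinearGroup.center_eq_range_scalar] at h
  obtain ⟨u, hu⟩ := h
  have hm : Matrix.scalar (Fin 12) (u : ZMod 7) = toMat (genPk.getD 0 onePk) := by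
    rw [← (rep_genU (x := 0) (by norm_num)).1, ← hu]
    rfl
  have key : ∀ c : ZMod 7, Matrix.scalar (Fin 12) c ≠ toMat (genPk.getD 0 onePk) := by decide +kernel
  exact key _ hm

theorem proj_injective : Function.Injective proj := by
  have := CosetEnum.Suz.simple
  refine (MonoidHom.ker_eq_bot_iff _).1 ((MonoidHom.normal_ker proj).eq_bot_or_eq_top.resolve_right
    fun h => genU_zero_notMem ((QuotientGroup.eq_one_iff _).1 ?_))
  rw [← proj_gen (x := 0) (by norm_num)]
  exact MonoidHom.mem_ker.1 (h ▸ Subgroup.mem_top _)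

theorem mk_mem_range {g : GL12} (hg : g ∈ Gam) : (QuotientGroup.mk g : GL12 ⧸ Z) ∈ proj.range := by
  have : Gam ≤ proj.range.comap (QuotientGroup.mk' Z) := by
    rw [Gam, Subgroup.closure_le]
    rintro _ ⟨x, hx, rfl⟩
    exact ⟨_, proj_gen hx⟩
  exact this hg

/-- The covering map. -/
noncomputable def cover : Gam →* Cfsg.Spor.Suz :=
  (MonoidHom.ofInjective proj_injective).symm.toMonoidHom.comp
    (((QuotientGroup.mk' Z).comp Gam.subtype).codRestrict _ fun g => mk_mem_range g.2)

theorem proj_cover (g : Gam) : proj (cover g) = QuotientGroup.mk (g : GL12) :=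
  MonoidHom.apply_ofInjective_symm proj_injective _

theorem cover_surjective : Function.Surjective cover := by
  rw [← MonoidHom.range_eq_top, eq_top_iff, ← CosetEnum.Suz.sub_seven, CosetEnum.Suz.sub,
    Subgroup.closure_le]
  rintro _ ⟨x, hx, rfl⟩
  exact ⟨⟨genU x, genU_mem hx⟩, proj_injective ((proj_cover _).trans (proj_gen hx).symm)⟩

theorem mem_ker_cover {g : Gam} : g ∈ cover.ker ↔ (g : GL12) ∈ Z := by
  rw [MonoidHom.mem_ker, ← QuotientGroup.eq_one_iff, ← proj_cover, ← proj_injective.eq_iff, map_one]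

end CfsgLib.SuzukiCover
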