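import Cfsg.Agent.SuzukiCover.Data
import Mathlib

/-!
Packed 12 × 12 matrices over the field with seven elements for kernel computations: a row is one number
with ten bits per entry, a matrix is the list of its rows.
-/

set_option autoImplicit false

namespace CfsgLib.SuzukiCover

open scoped Matrix

/-- An entry of a packed row. -/
def el (r i : ℕ) : ℕ := (r >>> (10 * i)) % 1024

/-- Packing of `n` entries. -/
def pack : ℕ → (ℕ → ℕ) → ℕ
  | 0, _ => 0
  | n + 1, f => f 0 + 1024 * pack n fun i => f (i + 1)

theorem el_pack {n : ℕ} : ∀ {f : ℕ → ℕ} {i : ℕ}, (∀ j < n, f j < 1024) → i < n → el (pack n f) i = f i := by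
  induction n with
  | zero => intro f i _ hi; omega
  | succ n ih =>
    intro f i hf hi
    cases i with
    | zero =>
      simp only [el, pack, Nat.mul_zero, Nat.shiftRight_zero, Nat.add_mul_mod_self_left]
      exact Nat.mod_eq_of_lt (hf 0 (by omega))
    | succ i =>
      rw [← ih (f := fun j => f (j + 1)) (i := i) (fun j hj => hf _ (by omega)) (by omega)]
      simp only [el, pack]
      rw [Nat.shiftRight_eq_div_pow, Nat.shiftRight_eq_div_pow,
        show 10 * (i + 1) = 10 + 10 * i by ring, pow_add, ← Nat.div_div_eq_div_mul,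
        show (2 : ℕ) ^ 10 = 1024 from rfl, Nat.add_mul_div_left _ _ (by norm_num),
        Nat.div_eq_of_lt (hf 0 (by omega)), Nat.zero_add]

theorem pack_congr {n : ℕ} : ∀ {f g : ℕ → ℕ}, (∀ j < n, f j = g j) → pack n f = pack n g := by
  induction n with
  | zero => intros; rfl
  | succ n ih =>
    intro f g h
    rw [pack, pack, h 0 (by omega), ih fun j hj => h _ (by omega)]

theorem pack_add {n : ℕ} : ∀ (f g : ℕ → ℕ), pack n (fun i => f i + g i) = pack n f + pack n g := by
  induction n with
  | zero => intros; rfl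
  | succ n ih => intro f g; simp only [pack]; rw [ih]; ring

theorem pack_mul {n : ℕ} : ∀ (c : ℕ) (f : ℕ → ℕ), pack n (fun i => c * f i) = c * pack n f := by
  induction n with
  | zero => intros; rfl
  | succ n ih => intro c f; simp only [pack]; rw [ih]; ring

theorem pack_zero (n : ℕ) : pack n (fun _ => 0) = 0 := by
  induction n with
  | zero => rfl
  | succ n ih => simp only [pack]; rw [ih]

/-- A reduced packed row. -/
def okV (r : ℕ) : Bool := Nat.beq r (pack 12 (el r)) && (List.range 12).all fun i => Nat.blt (el r i) 7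

/-- The combination of the rows. -/
def comb : List ℕ → ℕ → ℕ
  | [], _ => 0
  | c :: M, v => v % 1024 * c + comb M (v >>> 10)

/-- Reduction of a packed row. -/
def red (r : ℕ) : ℕ := pack 12 fun i => el r i % 7

/-- A row times a matrix. -/
def vm (M : List ℕ) (v : ℕ) : ℕ := red (comb M v)

/-- The product of matrices. -/
def mul (A B : List ℕ) : List ℕ := A.map (vm B)

/-- The scalar matrix. -/
def scalPk (x : ℕ) : List ℕ := (List.range 12).map fun i => x <<< (10 * i)

/-- The identity matrix. -/
def onePk : List ℕ := scalPk 1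

/-- Equality of packed matrices. -/
def eqM : List ℕ → List ℕ → Bool
  | [], [] => true
  | a :: as, b :: bs => Nat.beq a b && eqM as bs
  | _, _ => false

theorem eqM_eq : ∀ {A B : List ℕ}, eqM A B = true → A = B
  | [], [], _ => rfl
  | a :: as, b :: bs, h => by
    rw [eqM, Bool.and_eq_true] at h
    rw [Nat.eq_of_beq_eq_true h.1, eqM_eq h.2]
  | [], _ :: _, h => by simp [eqM] at h
  | _ :: _, [], h => by simp [eqM] at h

/-- A reduced packed matrix. -/
def okM (M : List ℕ) : Bool := Nat.beq M.length 12 && M.all okV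

/-- The vector of a packed row. -/
def toV (r : ℕ) : Fin 12 → ZMod 7 := fun j => (el r j : ZMod 7)

/-- The matrix of a packed matrix. -/
def toMat (M : List ℕ) : Matrix (Fin 12) (Fin 12) (ZMod 7) := fun i => toV (M.getD i 0)

theorem okV_spec {r : ℕ} (h : okV r = true) : r = pack 12 (el r) ∧ ∀ i < 12, el r i < 7 := by
  simp only [okV, Bool.and_eq_true, List.all_eq_true, List.mem_range] at h
  exact ⟨Nat.eq_of_beq_eq_true h.1, fun i hi => Nat.le_of_ble_eq_true (h.2 i hi)⟩

theorem el_red (r : ℕ) {i : ℕ} (hi : i < 12) : el (red r) i = el r i % 7 :=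
  el_pack (fun j _ => lt_trans (Nat.mod_lt _ (by norm_num)) (by norm_num)) hi

theorem okV_red (r : ℕ) : okV (red r) = true := by
  simp only [okV, Bool.and_eq_true, List.all_eq_true, List.mem_range]
  refine ⟨?_, fun i hi => Nat.ble_eq_true_of_le ?_⟩
  · have e : pack 12 (el (red r)) = red r := pack_congr fun i hi => el_red r hi
    rw [e]
    exact Nat.beq_refl _
  · rw [el_red r hi]
    exact Nat.mod_lt _ (by norm_num)

theorem toV_inj {r r' : ℕ} (h : okV r = true) (h' : okV r' = true) (he : toV r = toV r') : r = r' := by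
  obtain ⟨e, hl⟩ := okV_spec h
  obtain ⟨e', hl'⟩ := okV_spec h'
  rw [e, e']
  refine pack_congr fun i hi => ?_
  have := congrArg ZMod.val (congrFun he ⟨i, hi⟩)
  simpa [toV, ZMod.val_natCast, Nat.mod_eq_of_lt (hl i hi), Nat.mod_eq_of_lt (hl' i hi)] using this

theorem comb_eq : ∀ (M : List ℕ) (v : ℕ), (∀ c ∈ M, okV c = true) →
    comb M v = pack 12 fun i => ∑ j ∈ Finset.range M.length, el v j * el (M.getD j 0) i
  | [], v, _ => by simp [comb, pack_zero]
  | c :: M, v, h => by
    have ih := comb_eq M (v >>> 10) fun x hx => h x (List.mem_cons_of_mem _ hx)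
    rw [comb, ih]
    have e : v % 1024 * c = pack 12 fun i => v % 1024 * el c i :=
      ((okV_spec (h c List.mem_cons_self)).1 ▸ rfl : v % 1024 * c = v % 1024 * pack 12 (el c)).trans
        (pack_mul _ _).symm
    rw [e, ← pack_add]
    refine pack_congr fun i _ => ?_
    rw [List.length_cons, Finset.sum_range_succ', add_comm]
    refine congrArg₂ _ (Finset.sum_congr rfl fun j _ => ?_) ?_
    · rw [List.getD_cons_succ]
      simp only [el, ← Nat.shiftRight_add]
      rw [show 10 + 10 * j = 10 * (j + 1) by ring]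
    · simp [el]

theorem toV_vm {M : List ℕ} (hM : okM M = true) {v : ℕ} (hv : okV v = true) :
    toV (vm M v) = toV v ᵥ* toMat M := by
  simp only [okM, Bool.and_eq_true, List.all_eq_true] at hM
  obtain ⟨hl, hc⟩ := hM
  have hl' := Nat.eq_of_beq_eq_true hl
  funext j
  have hb : ∀ k < 12, (∑ i ∈ Finset.range M.length, el v i * el (M.getD i 0) k) < 1024 := by
    intro k hk
    rw [hl']
    have : ∀ i ∈ Finset.range 12, el v i * el (M.getD i 0) k ≤ 36 := by
      intro i hi
      rw [Finset.mem_range] at hi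
      have h1 := (okV_spec hv).2 i hi
      have hm : M.getD i 0 ∈ M := by
        rw [List.getD_eq_getElem _ _ (by omega)]; exact List.getElem_mem _
      have h2 := (okV_spec (hc _ hm)).2 k hk
      nlinarith
    exact lt_of_le_of_lt (Finset.sum_le_card_nsmul _ _ 36 this) (by simp)
  show ((el (red (comb M v)) j : ℕ) : ZMod 7) = _
  rw [el_red _ j.2, comb_eq M v hc, el_pack hb j.2, ZMod.natCast_mod, hl', Nat.cast_sum, Matrix.vecMul,
    dotProduct, Finset.sum_range]
  simp [toV, toMat]

theorem okV_vm (M : List ℕ) (v : ℕ) : okV (vm M v) = true := okV_red _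

theorem toMat_mul {A B : List ℕ} (hA : okM A = true) (hB : okM B = true) :
    toMat (mul A B) = toMat A * toMat B ∧ okM (mul A B) = true := by
  have hA' := hA
  simp only [okM, Bool.and_eq_true, List.all_eq_true] at hA'
  refine ⟨?_, ?_⟩
  · funext i j
    have hi : (i : ℕ) < A.length := by rw [Nat.eq_of_beq_eq_true hA'.1]; exact i.2
    show toV ((A.map (vm B)).getD i 0) j = _
    rw [List.getD_eq_getElem _ _ (by simpa using hi), List.getElem_map,
      toV_vm hB (hA'.2 _ (List.getElem_mem _)), Matrix.mul_apply]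
    simp [Matrix.vecMul, dotProduct, toMat, List.getD_eq_getElem?_getD, hi]
  · simp only [okM, mul, Bool.and_eq_true, List.all_eq_true, List.length_map]
    refine ⟨hA'.1, fun x hx => ?_⟩
    obtain ⟨y, -, rfl⟩ := List.mem_map.1 hx
    exact okV_vm B y

theorem toMat_scalPk : ∀ x < 7, toMat (scalPk x) = Matrix.scalar (Fin 12) ((x : ℕ) : ZMod 7) ∧
    okM (scalPk x) = true := by
  decide +kernel

/-- The invertible matrices. -/
abbrev GL12 : Type := GL (Fin 12) (ZMod 7)

/-- An invertible matrix given by a packed matrix. -/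
def Rep (g : GL12) (M : List ℕ) : Prop :=
  (g : Matrix (Fin 12) (Fin 12) (ZMod 7)) = toMat M ∧ okM M = true

theorem Rep.mul {g h : GL12} {M N : List ℕ} (hg : Rep g M) (hh : Rep h N) :
    Rep (g * h) (SuzukiCover.mul M N) :=
  ⟨by rw [Units.val_mul, hg.1, hh.1, (toMat_mul hg.2 hh.2).1], (toMat_mul hg.2 hh.2).2⟩

theorem Rep.one : Rep (1 : GL12) onePk :=
  ⟨by rw [Units.val_one, onePk, (toMat_scalPk 1 (by norm_num)).1]; simp,
    (toMat_scalPk 1 (by norm_num)).2⟩

theorem Rep.eq {g h : GL12} {M : List ℕ} (hg : Rep g M) (hh : Rep h M) : g = h :=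
  Units.ext (hg.1.trans hh.1.symm)

theorem Rep.vm {g : GL12} {M : List ℕ} (hg : Rep g M) {v : ℕ} (hv : okV v = true) :
    toV (SuzukiCover.vm M v) = toV v ᵥ* (g : Matrix (Fin 12) (Fin 12) (ZMod 7)) := by
  rw [hg.1]; exact toV_vm hg.2 hv

end CfsgLib.SuzukiCover
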